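import Cfsg.Agent.Chev.Torus

/-!
# The diagonal subgroup as an image of a split torus, and its order
-/

set_option autoImplicit false
set_option linter.unusedSimpArgs false

namespace Cfsg.Agent.Chev

open Cfsg.Lie Matrix

variable {D : ChevalleyDatum} {C : Cert} {F : Type*} [Field F]

theorem zpow_finset_sum {ι : Type*} (s : Finset ι) (f : ι → ℤ) {a : F} (ha : a ≠ 0) :
    a ^ (∑ i ∈ s, f i) = ∏ i ∈ s, a ^ f i := by
  induction s using Finset.cons_induction with
  | empty => simp
  | cons i s hi ih => rw [Finset.sum_cons, Finset.prod_cons, zpow_add₀ ha, ih]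

/-- The diagonal matrix of the torus element with coordinates `c`. -/
def tMat (D : ChevalleyDatum) (c : ℕ → F) : Matrix D.Idx D.Idx F :=
  Matrix.diagonal (Sum.elim (fun _ => (1 : F))
    fun s : Fin D.nroots => ∏ k ∈ Finset.range D.rank, c k ^ D.cartan k s)

theorem tMat_mul (c d : ℕ → F) : tMat D c * tMat D d = tMat D (fun k => c k * d k) := by
  rw [tMat, tMat, tMat, Matrix.diagonal_mul_diagonal]
  congr 1
  funext i
  rcases i with i | s
  · simp
  · simp [mul_zpow, Finset.prod_mul_distrib]

theorem tMat_one : tMat D (fun _ => (1 : F)) = 1 := by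
  rw [tMat, ← Matrix.diagonal_one]
  congr 1
  funext i
  rcases i with i | s <;> simp

theorem tMat_congr {c d : ℕ → F} (h : ∀ k < D.rank, c k = d k) : tMat D c = tMat D d := by
  rw [tMat, tMat]
  congr 1
  funext i
  rcases i with i | s
  · rfl
  · exact Finset.prod_congr rfl fun k hk => by rw [h k (Finset.mem_range.1 hk)]

theorem hDiag_eq_tMat (r : ℕ) {t : F} (ht : t ≠ 0) :
    hDiag D r t = tMat D (fun k => t ^ coef D r k) := by
  rw [hDiag, tMat]
  congr 1
  funext i
  rcases i with i | s
  · rfl
  · simp only [Sum.elim_inr, torusExp, zpow_finset_sum _ _ ht, ← _root_.zpow_mul]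

/-- The torus element as a unit. -/
def tU (D : ChevalleyDatum) (c : Fin D.rank → Fˣ) : GL D.Idx F where
  val := tMat D fun k => if h : k < D.rank then (c ⟨k, h⟩ : F) else 1
  inv := tMat D fun k => if h : k < D.rank then ((c ⟨k, h⟩)⁻¹ : F) else 1
  val_inv := by
    rw [tMat_mul]
    refine (tMat_congr fun k hk => ?_).trans tMat_one
    rw [dif_pos hk, dif_pos hk, mul_inv_cancel₀ (Units.ne_zero _)]
  inv_val := by
    rw [tMat_mul]
    refine (tMat_congr fun k hk => ?_).trans tMat_one
    rw [dif_pos hk, dif_pos hk, inv_mul_cancel₀ (Units.ne_zero _)]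

/-- The parametrisation of the diagonal subgroup. -/
def tHom (D : ChevalleyDatum) (F : Type*) [Field F] : (Fin D.rank → Fˣ) →* GL D.Idx F :=
  MonoidHom.mk' (tU D) fun c d => Units.ext (by
    rw [Units.val_mul]
    show tMat D _ = tMat D _ * tMat D _
    rw [tMat_mul]
    exact tMat_congr fun k hk => by simp [hk])

namespace Cert.Valid

variable (hV : C.Valid D)
include hV

theorem hWords_eq {c : ℕ → F} (hc : ∀ k < D.rank, c k ≠ 0) :
    D.wordMat F ((List.range D.rank).flatMap fun i => D.hWord (D.simple i) (c i)) = tMat D c := by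
  have key : ∀ m ≤ D.rank,
      D.wordMat F ((List.range m).flatMap fun i => D.hWord (D.simple i) (c i)) =
        tMat D (fun k => if k < m then c k else 1) := by
    intro m hm
    induction m with
    | zero =>
      simp only [List.range_zero, List.flatMap_nil, Nat.not_lt_zero, if_false, tMat_one]
      simp [ChevalleyDatum.wordMat]
    | succ m ih =>
      have hm' : m < D.rank := hm
      have e : D.wordMat F ((List.range (m + 1)).flatMap fun i => D.hWord (D.simple i) (c i)) =
          D.wordMat F ((List.range m).flatMap fun i => D.hWord (D.simple i) (c i)) *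
            D.hMat F (D.simple m) (c m) := by
        simp [ChevalleyDatum.wordMat, ChevalleyDatum.hMat, List.range_succ, List.prod_append]
      rw [e, ih hm'.le, hV.hMat_simple hm' (hc m hm'), hDiag_eq_tMat _ (hc m hm'), tMat_mul]
      refine tMat_congr fun k hk => ?_
      rw [hV.coef_simple hm' hk]
      rcases lt_trichotomy k m with h | h | h
      · rw [if_pos h, if_neg h.ne, if_pos (by omega), zpow_zero, mul_one]
      · subst h; rw [if_neg (lt_irrefl _), if_pos rfl, if_pos (Nat.lt_succ_self _), zpow_one, one_mul]
      · rw [if_neg (by omega), if_neg h.ne', if_neg (by omega), zpow_zero, mul_one]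
  rw [key D.rank le_rfl]
  exact tMat_congr fun k hk => if_pos hk

theorem diagonalSubgroup_eq_range : D.diagonalSubgroup F = (tHom D F).range := by
  apply le_antisymm
  · rw [ChevalleyDatum.diagonalSubgroup, Subgroup.closure_le]
    rintro g ⟨r, t, hr, ht, hg⟩
    refine ⟨fun k => Units.mk0 (t ^ coef D r k) (zpow_ne_zero _ ht), Units.ext ?_⟩
    show tMat D _ = _
    rw [hg, hV.hMat_eq hr ht, hDiag_eq_tMat r ht]
    exact tMat_congr fun k hk => by rw [dif_pos hk]; rfl
  · rintro _ ⟨c, rfl⟩
    have key : ∀ (m : ℕ) (c : Fin D.rank → Fˣ), (∀ k : Fin D.rank, m ≤ k.val → c k = 1) →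
        tHom D F c ∈ D.diagonalSubgroup F := by
      intro m
      induction m with
      | zero =>
        intro c hc
        rw [show c = 1 from funext fun k => hc k (Nat.zero_le _), map_one]
        exact one_mem _
      | succ m ih =>
        intro c hc
        by_cases hm : m < D.rank
        · have e : c = Function.update c ⟨m, hm⟩ 1 * Pi.mulSingle ⟨m, hm⟩ (c ⟨m, hm⟩) := by
            funext k
            by_cases h : k = ⟨m, hm⟩
            · subst h; simp
            · simp [h]
          rw [e, map_mul]
          refine mul_mem (ih _ fun k hk => ?_) (Subgroup.subset_closure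
            ⟨D.simple m, ((c ⟨m, hm⟩ : Fˣ) : F), hV.simple_lt hm, Units.ne_zero _, ?_⟩)
          · by_cases h : k = ⟨m, hm⟩
            · subst h; simp
            · rw [Function.update_of_ne h]
              exact hc k (by have : k.val ≠ m := fun h' => h (Fin.ext h'); omega)
          · show tMat D _ = _
            rw [hV.hMat_simple hm (Units.ne_zero _), hDiag_eq_tMat _ (Units.ne_zero _)]
            refine tMat_congr fun k hk => ?_
            rw [dif_pos hk, hV.coef_simple hm hk]
            by_cases h : k = m
            · subst h; simp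
            · have : (⟨k, hk⟩ : Fin D.rank) ≠ ⟨m, hm⟩ := fun h' => h (congrArg Fin.val h')
              simp [h, this]
        · exact ih c fun k hk => absurd k.2 (by omega)
    exact key D.rank c fun k hk => absurd k.2 (by omega)

theorem exists_coords {g : GL D.Idx F} (hg : g ∈ D.diagonalSubgroup F) :
    ∃ c : ℕ → F, (∀ i < D.rank, c i ≠ 0) ∧ (g : Matrix D.Idx D.Idx F) =
      D.wordMat F ((List.range D.rank).flatMap fun i => D.hWord (D.simple i) (c i)) := by
  rw [hV.diagonalSubgroup_eq_range] at hg
  obtain ⟨c, rfl⟩ := hg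
  refine ⟨fun k => if h : k < D.rank then (c ⟨k, h⟩ : F) else 1, fun i hi => ?_, ?_⟩
  · simp only [dif_pos hi]; exact Units.ne_zero _
  · rw [hV.hWords_eq fun k hk => by simp only [dif_pos hk]; exact Units.ne_zero _]
    rfl

theorem mem_tKer (c : Fin D.rank → Fˣ) :
    c ∈ (tHom D F).ker ↔ ∀ j : Fin D.rank, ∏ k : Fin D.rank, c k ^ D.cartan k (D.simple j) = 1 := by
  have h1 : c ∈ (tHom D F).ker ↔
      ∀ s < D.nroots, ∏ k : Fin D.rank, c k ^ D.cartan k s = 1 := by
    rw [MonoidHom.mem_ker, Units.ext_iff, Units.val_one]
    show tMat D _ = 1 ↔ _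
    rw [tMat, ← Matrix.diagonal_one, Matrix.diagonal_injective.eq_iff]
    constructor
    · intro h s hs
      have := congrFun h (Sum.inr ⟨s, hs⟩)
      simp only [Sum.elim_inr, Finset.prod_range] at this
      refine Units.ext ?_
      rw [Units.coe_prod, Units.val_one, ← this]
      exact Finset.prod_congr rfl fun k _ => by simp
    · intro h
      funext i
      rcases i with i | s
      · rfl
      · simp only [Sum.elim_inr, Finset.prod_range]
        have := congrArg Units.val (h s s.2)
        rw [Units.coe_prod, Units.val_one] at this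
        rw [← this]
        exact Finset.prod_congr rfl fun k _ => by simp
  rw [h1]
  refine ⟨fun h j => h _ (hV.simple_lt j.2), fun h => ?_⟩
  refine hV.root_induction (fun i hi => h ⟨i, hi⟩) fun i hi s hs ih => ?_
  calc ∏ k : Fin D.rank, c k ^ D.cartan k (C.w i s)
      = ∏ k : Fin D.rank,
        (c k ^ D.cartan k s * (c k ^ D.cartan k (D.simple i)) ^ (-D.cartan i s)) := by
        refine Finset.prod_congr rfl fun k _ => ?_
        rw [hV.cartan_w hi k.2 hs, ← _root_.zpow_mul, ← _root_.zpow_add]
        congr 1
        ring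
    _ = 1 := by
      rw [Finset.prod_mul_distrib, ih, Finset.prod_zpow]
      rw [h ⟨i, hi⟩, _root_.one_zpow, one_mul]

end Cert.Valid

/-! ### The order of the diagonal subgroup -/

/-- An integer matrix acting on tuples of an additive group. -/
def zAct {l : ℕ} {A : Type*} [AddCommGroup A] (M : Matrix (Fin l) (Fin l) ℤ) (x : Fin l → A) :
    Fin l → A := fun j => ∑ k, M j k • x k

theorem zAct_mul {l : ℕ} {A : Type*} [AddCommGroup A] (M N : Matrix (Fin l) (Fin l) ℤ)
    (x : Fin l → A) : zAct (M * N) x = zAct M (zAct N x) := by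
  funext j
  simp only [zAct, Matrix.mul_apply, Finset.sum_smul, Finset.smul_sum, mul_smul]
  rw [Finset.sum_comm]

theorem zAct_one {l : ℕ} {A : Type*} [AddCommGroup A] (x : Fin l → A) : zAct 1 x = x := by
  funext j
  simp only [zAct, Matrix.one_apply, ite_smul, one_smul, zero_smul, Finset.sum_ite_eq,
    Finset.mem_univ, if_true]

theorem zAct_diagonal {l : ℕ} {A : Type*} [AddCommGroup A] (d : Fin l → ℤ) (x : Fin l → A) :
    zAct (Matrix.diagonal d) x = fun j => d j • x j := by
  funext j
  simp only [zAct, Matrix.diagonal_apply, ite_smul, zero_smul, Finset.sum_ite_eq, Finset.mem_univ,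
    if_true]

/-- The Cartan matrix, transposed. -/
def cartanT (D : ChevalleyDatum) : Matrix (Fin D.rank) (Fin D.rank) ℤ :=
  Matrix.of fun j k => D.cartan k (D.simple j)

/-- A Smith normal form of the Cartan matrix. -/
structure Snf (D : ChevalleyDatum) where
  d : Fin D.rank → ℕ
  U : Matrix (Fin D.rank) (Fin D.rank) ℤ
  U' : Matrix (Fin D.rank) (Fin D.rank) ℤ
  W : Matrix (Fin D.rank) (Fin D.rank) ℤ
  W' : Matrix (Fin D.rank) (Fin D.rank) ℤ
  hU : U' * U = 1
  hW : W' * W = 1
  hW' : W * W' = 1
  heq : U * cartanT D = Matrix.diagonal (fun j => (d j : ℤ)) * W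

theorem Cert.Valid.card_diagonal (hV : C.Valid D) (N : Snf D) [Fintype F] :
    (∏ j, Nat.gcd (Fintype.card F - 1) (N.d j)) * Nat.card (D.diagonalSubgroup F) =
      (Fintype.card F - 1) ^ D.rank := by
  classical
  have hdom : Nat.card (Fin D.rank → Fˣ) = (Fintype.card F - 1) ^ D.rank := by
    simp [Nat.card_eq_fintype_card, Fintype.card_units]
  have hkey : Nat.card (tHom D F).ker * Nat.card (tHom D F).range =
      Nat.card (Fin D.rank → Fˣ) := by
    rw [← Nat.card_congr (QuotientGroup.quotientKerEquivRange (tHom D F)).toEquiv, mul_comm]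
    exact (Subgroup.card_eq_card_quotient_mul_card_subgroup _).symm
  have hmem : ∀ c : Fin D.rank → Fˣ, c ∈ (tHom D F).ker ↔
      ∀ j, (N.d j : ℤ) • zAct N.W (fun k => Additive.ofMul (c k)) j = 0 := by
    intro c
    rw [hV.mem_tKer]
    have e : zAct (Matrix.diagonal fun j => (N.d j : ℤ))
        (zAct N.W fun k => Additive.ofMul (c k)) =
        zAct N.U (zAct (cartanT D) fun k => Additive.ofMul (c k)) := by
      rw [← zAct_mul, ← zAct_mul, N.heq]
    constructor
    · intro h j
      have h0 : zAct (cartanT D) (fun k => Additive.ofMul (c k)) = 0 := by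
        funext i
        exact (congrArg Additive.ofMul (h i)).trans rfl |> fun e => by
          simpa [zAct, cartanT, ofMul_prod, ofMul_zpow] using e
      have := congrFun e j
      rw [zAct_diagonal, h0] at this
      simpa [zAct] using this
    · intro h i
      have h0 : zAct (cartanT D) (fun k => Additive.ofMul (c k)) = 0 := by
        calc zAct (cartanT D) (fun k => Additive.ofMul (c k))
            = zAct N.U' (zAct N.U (zAct (cartanT D) fun k => Additive.ofMul (c k))) := by
              rw [← zAct_mul N.U', N.hU, zAct_one]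
          _ = zAct N.U' 0 := by rw [← e, zAct_diagonal]; exact congrArg _ (funext h)
          _ = 0 := by funext j; simp [zAct]
      have := congrFun h0 i
      apply Additive.ofMul.injective
      simpa [zAct, cartanT, ofMul_prod, ofMul_zpow] using this
  let e : (Fin D.rank → Fˣ) ≃ (Fin D.rank → Fˣ) :=
    { toFun := fun c j => Additive.toMul (zAct N.W (fun k => Additive.ofMul (c k)) j)
      invFun := fun c j => Additive.toMul (zAct N.W' (fun k => Additive.ofMul (c k)) j)
      left_inv := fun c => by
        funext j
        show Additive.toMul (zAct N.W' (zAct N.W fun k => Additive.ofMul (c k)) j) = c j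
        rw [← zAct_mul, N.hW, zAct_one]; rfl
      right_inv := fun c => by
        funext j
        show Additive.toMul (zAct N.W (zAct N.W' fun k => Additive.ofMul (c k)) j) = c j
        rw [← zAct_mul, N.hW', zAct_one]; rfl }
  have hker : Nat.card (tHom D F).ker = ∏ j, Nat.gcd (Fintype.card F - 1) (N.d j) := by
    calc Nat.card (tHom D F).ker
        = Nat.card {x : Fin D.rank → Fˣ // ∀ j, x j ∈ (powMonoidHom (N.d j) : Fˣ →* Fˣ).ker} :=
          Nat.card_congr (e.subtypeEquiv fun c => by
            rw [hmem]
            refine forall_congr' fun j => ?_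
            rw [natCast_zsmul, MonoidHom.mem_ker, powMonoidHom_apply]
            exact Additive.toMul.injective.eq_iff.symm)
      _ = ∏ j, Nat.card (powMonoidHom (N.d j) : Fˣ →* Fˣ).ker := by
          rw [← Nat.card_pi]
          exact Nat.card_congr Equiv.subtypePiEquivPi
      _ = _ := Finset.prod_congr rfl fun j _ => by
          rw [IsCyclic.card_powMonoidHom_ker, Nat.card_eq_fintype_card, Fintype.card_units]
  rw [← hker, hV.diagonalSubgroup_eq_range, hkey, hdom]

end Cfsg.Agent.Chev
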